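import Mathlib
import Cfsg.Agent.Lib.Helper91.M11Theta

set_option autoImplicit false

/-!
# Generic counting lemmas

Double counting of pairs (element, Sylow subgroup), the class formula for centralizers, products
of commuting elements of orders `3` and `2`, and the numbers of elements of orders `5` and `11`
in a simple group of order `7920`.
-/

namespace Cfsg.Agent.Lib.Helper91.M11

open Cfsg

variable {G : Type*} [Group G]

/-- the class formula: the centralizer orders add up to `k(G) * |G|` -/
theorem sum_card_centralizer [Fintype G] :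
    ∑ g : G, Nat.card (Subgroup.centralizer ({g} : Set G)) =
      Nat.card (ConjClasses G) * Nat.card G := by
  classical
  rw [← card_comm_eq_card_conjClasses_mul_card,
    Nat.card_congr (Equiv.subtypeProdEquivSigmaSubtype (fun a b : G => Commute a b)),
    Nat.card_sigma]
  refine Finset.sum_congr rfl (fun g _ => ?_)
  refine Nat.card_congr (Equiv.subtypeEquivRight (fun b => ?_))
  rw [Subgroup.mem_centralizer_iff]
  constructor
  · intro h
    exact h g rfl
  · intro h a ha
    rw [Set.mem_singleton_iff] at ha
    subst ha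
    exact h

/-- the number of elements of order `3` is even -/
theorem even_card_orderOf_three [Finite G] : Even (Nat.card {x : G // orderOf x = 3}) := by
  classical
  have : Fintype G := Fintype.ofFinite G
  have : Fact (Nat.Prime 2) := ⟨Nat.prime_two⟩
  rw [Nat.card_eq_fintype_card]
  let f : Function.End {x : G // orderOf x = 3} := fun x => ⟨x.1⁻¹, by rw [orderOf_inv]; exact x.2⟩
  have hf : f ^ 2 ^ 1 = 1 := by
    rw [pow_one, pow_two]
    funext x
    apply Subtype.ext
    change (x.1⁻¹)⁻¹ = x.1
    rw [inv_inv]
  have h := Equiv.Perm.card_fixedPoints_modEq (p := 2) (n := 1) hf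
  have h0 : Fintype.card (Function.fixedPoints f) = 0 := by
    rw [Fintype.card_eq_zero_iff]
    refine ⟨fun x => ?_⟩
    have hx : f x.1 = x.1 := x.2
    have hx' : (x.1.1)⁻¹ = x.1.1 := congrArg Subtype.val hx
    have h2 : x.1.1 ^ 2 = 1 := by
      rw [pow_two]
      nth_rewrite 1 [← hx']
      exact inv_mul_cancel _
    have h3 := orderOf_dvd_of_pow_eq_one h2
    rw [x.1.2] at h3
    omega
  rw [h0] at h
  exact Nat.even_iff.2 h

open Classical in
/-- products `x * t` of commuting elements of orders `3` and `2` are distinct elements of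
order `6` -/
theorem sum_order_six_le [Fintype G] (f : G → ℕ) :
    ∑ x ∈ Finset.univ.filter (fun x : G => orderOf x = 3),
      ∑ t ∈ Finset.univ.filter (fun t : G => orderOf t = 2 ∧ Commute x t), f (x * t) ≤
    ∑ g ∈ Finset.univ.filter (fun g : G => orderOf g = 6), f g := by
  rw [Finset.sum_sigma']
  have hinj : ∀ p ∈ (Finset.univ.filter (fun x : G => orderOf x = 3)).sigma
      (fun x => Finset.univ.filter (fun t : G => orderOf t = 2 ∧ Commute x t)),
      ∀ p' ∈ (Finset.univ.filter (fun x : G => orderOf x = 3)).sigma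
      (fun x => Finset.univ.filter (fun t : G => orderOf t = 2 ∧ Commute x t)),
      p.1 * p.2 = p'.1 * p'.2 → p = p' := by
    rintro ⟨x, t⟩ hp ⟨x', t'⟩ hp' h
    simp only [Finset.mem_sigma, Finset.mem_filter, Finset.mem_univ, true_and] at hp hp'
    simp only at h
    obtain ⟨hx, ht, hc⟩ := hp
    obtain ⟨hx', ht', hc'⟩ := hp'
    have hx3 : x ^ 3 = 1 := by rw [← hx]; exact pow_orderOf_eq_one x
    have ht2 : t ^ 2 = 1 := by rw [← ht]; exact pow_orderOf_eq_one t
    have hx3' : x' ^ 3 = 1 := by rw [← hx']; exact pow_orderOf_eq_one x'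
    have ht2' : t' ^ 2 = 1 := by rw [← ht']; exact pow_orderOf_eq_one t'
    have e1 : (x * t) ^ 3 = t := by
      rw [hc.mul_pow, hx3, one_mul, pow_succ, ht2, one_mul]
    have e1' : (x' * t') ^ 3 = t' := by
      rw [hc'.mul_pow, hx3', one_mul, pow_succ, ht2', one_mul]
    have e2 : (x * t) ^ 4 = x := by
      rw [hc.mul_pow, pow_succ x 3, hx3, one_mul, show 4 = 2 * 2 from rfl, pow_mul, ht2, one_pow,
        mul_one]
    have e2' : (x' * t') ^ 4 = x' := by
      rw [hc'.mul_pow, pow_succ x' 3, hx3', one_mul, show 4 = 2 * 2 from rfl, pow_mul, ht2',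
        one_pow, mul_one]
    have hxx : x = x' := by rw [← e2, ← e2', h]
    have htt : t = t' := by rw [← e1, ← e1', h]
    subst hxx
    subst htt
    rfl
  rw [← Finset.sum_image (f := f) hinj]
  apply Finset.sum_le_sum_of_subset
  intro g hg
  rw [Finset.mem_image] at hg
  obtain ⟨⟨x, t⟩, hp, rfl⟩ := hg
  simp only [Finset.mem_sigma, Finset.mem_filter, Finset.mem_univ, true_and] at hp
  obtain ⟨hx, ht, hc⟩ := hp
  rw [Finset.mem_filter]
  refine ⟨Finset.mem_univ _, ?_⟩
  change orderOf (x * t) = 6
  rw [hc.orderOf_mul_eq_mul_orderOf_of_coprime (by rw [hx, ht]; norm_num), hx, ht]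

open Classical in
/-- double counting of the pairs (element `x` of order `q`, Sylow `p`-subgroup containing `x`),
weighted by a class function -/
theorem sum_mul_card_sylow_mem [Fintype G] {p : ℕ} [Fact p.Prime] (S : Sylow p G) (F : G → ℕ)
    (hF : ∀ g x : G, F (g * x * g⁻¹) = F x) (q : ℕ) :
    ∑ x ∈ Finset.univ.filter (fun x : G => orderOf x = q),
      F x * Nat.card {S' : Sylow p G // x ∈ S'} =
    Nat.card (Sylow p G) *
      ∑ x ∈ Finset.univ.filter (fun x : G => x ∈ (S : Subgroup G) ∧ orderOf x = q), F x := by
  have : Fintype (Sylow p G) := Fintype.ofFinite _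
  have h1 : ∀ x : G, F x * Nat.card {S' : Sylow p G // x ∈ S'} =
      ∑ S' : Sylow p G, if x ∈ S' then F x else 0 := by
    intro x
    rw [Nat.card_eq_fintype_card, Fintype.card_subtype, Finset.card_filter, Finset.mul_sum]
    refine Finset.sum_congr rfl (fun S' _ => ?_)
    split_ifs <;> simp
  simp_rw [h1]
  rw [Finset.sum_comm]
  have h2 : ∀ S' : Sylow p G,
      ∑ x ∈ Finset.univ.filter (fun x : G => orderOf x = q), (if x ∈ S' then F x else 0) =
      ∑ x ∈ Finset.univ.filter (fun x : G => x ∈ (S : Subgroup G) ∧ orderOf x = q), F x := by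
    intro S'
    rw [← Finset.sum_filter, Finset.filter_filter]
    obtain ⟨g, rfl⟩ := MulAction.exists_smul_eq G S S'
    symm
    refine Finset.sum_equiv (MulAut.conj g).toEquiv (fun y => ?_) (fun y _ => ?_)
    · have hmem : (MulAut.conj g) y ∈ ((g • S : Sylow p G) : Subgroup G) ↔
          y ∈ (S : Subgroup G) := by
        rw [Sylow.coe_subgroup_smul]
        exact Subgroup.smul_mem_pointwise_smul_iff (a := MulAut.conj g) (S := (S : Subgroup G))
          (x := y)
      have hord : orderOf ((MulAut.conj g) y) = orderOf y := (MulAut.conj g).orderOf_eq y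
      simp only [Finset.mem_filter, Finset.mem_univ, true_and, MulEquiv.toEquiv_eq_coe,
        EquivLike.coe_coe]
      rw [hord]
      constructor
      · rintro ⟨h1, h2⟩
        exact ⟨h2, hmem.2 h1⟩
      · rintro ⟨h2, h1⟩
        exact ⟨hmem.1 h1, h2⟩
    · simp only [MulEquiv.toEquiv_eq_coe, EquivLike.coe_coe, MulAut.conj_apply]
      exact (hF g y).symm
  rw [Finset.sum_congr rfl (fun S' _ => h2 S'), Finset.sum_const, Finset.card_univ,
    ← Nat.card_eq_fintype_card, smul_eq_mul]

/-- if the Sylow `p`-subgroups have order `p`, there are `n_p * (p - 1)` elements of order `p` -/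
theorem card_orderOf_eq_prime [Finite G] {p : ℕ} [Fact p.Prime]
    (hS : ∀ P : Sylow p G, Nat.card (P : Subgroup G) = p) :
    Nat.card {x : G // orderOf x = p} = Nat.card (Sylow p G) * (p - 1) := by
  classical
  have : Fintype G := Fintype.ofFinite G
  have : Fintype (Sylow p G) := Fintype.ofFinite _
  have hp := (Fact.out : p.Prime)
  have key : ∀ P : Sylow p G, ∀ x : G, x ∈ (P : Subgroup G) → x ≠ 1 → orderOf x = p := by
    intro P x hxP hx1
    have hdvd : orderOf x ∣ p := by
      have := Subgroup.orderOf_dvd_natCard (P : Subgroup G) hxP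
      rwa [hS P] at this
    rcases (Nat.dvd_prime hp).1 hdvd with h | h
    · exact absurd (orderOf_eq_one_iff.1 h) hx1
    · exact h
  rw [Nat.card_eq_fintype_card, Fintype.card_subtype]
  have hU : Finset.univ.filter (fun x : G => orderOf x = p) =
      Finset.univ.biUnion (fun P : Sylow p G =>
        (Finset.univ.filter (fun g : G => g ∈ (P : Subgroup G))).erase 1) := by
    ext x
    simp only [Finset.mem_filter, Finset.mem_univ, true_and, Finset.mem_biUnion,
      Finset.mem_erase]
    constructor
    · intro hx
      have hpg : IsPGroup p (Subgroup.zpowers x) :=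
        IsPGroup.of_card (n := 1) (by rw [Nat.card_zpowers, hx, pow_one])
      obtain ⟨P, hP⟩ := hpg.exists_le_sylow
      refine ⟨P, ?_, hP (Subgroup.mem_zpowers x)⟩
      rintro rfl
      rw [orderOf_one] at hx
      exact hp.one_lt.ne hx
    · rintro ⟨P, hx1, hxP⟩
      exact key P x hxP hx1
  rw [hU, Finset.card_biUnion]
  · have h10 : ∀ P : Sylow p G,
        ((Finset.univ.filter (fun g : G => g ∈ (P : Subgroup G))).erase 1).card = p - 1 := by
      intro P
      rw [Finset.card_erase_of_mem (by simp [one_mem])]
      have h11 := hS P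
      rw [Nat.card_eq_fintype_card, Fintype.card_subtype] at h11
      rw [h11]
    rw [Finset.sum_congr rfl (fun P _ => h10 P), Finset.sum_const, Finset.card_univ,
      ← Nat.card_eq_fintype_card, smul_eq_mul]
  · intro P _ P' _ hne
    rw [Function.onFun, Finset.disjoint_left]
    intro x hx hx'
    simp only [Finset.mem_erase, Finset.mem_filter, Finset.mem_univ, true_and] at hx hx'
    apply hne
    have hox : orderOf x = p := key P x hx.2 hx.1
    have h1 : Subgroup.zpowers x = (P : Subgroup G) :=
      Subgroup.eq_of_le_of_card_ge ((Subgroup.zpowers_le).2 hx.2)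
        (by rw [Nat.card_zpowers, hox, hS P])
    have h2 : Subgroup.zpowers x = (P' : Subgroup G) :=
      Subgroup.eq_of_le_of_card_ge ((Subgroup.zpowers_le).2 hx'.2)
        (by rw [Nat.card_zpowers, hox, hS P'])
    exact Sylow.ext (h1.symm.trans h2)

/-- a simple group of order `7920` has `1440` elements of order `11` -/
theorem card_orderOf_eleven [Finite G] [IsSimpleGroup G] (hG : Nat.card G = 7920) :
    Nat.card {x : G // orderOf x = 11} = 1440 := by
  have : Fact (Nat.Prime 11) := ⟨by norm_num⟩
  rw [card_orderOf_eq_prime (fun P => (sylow11 hG P).1), card_sylow11 hG]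

/-- the number of Sylow `5`-subgroups of a simple group of order `7920` -/
theorem card_sylow5 [Finite G] [IsSimpleGroup G] (hG : Nat.card G = 7920) :
    Nat.card (Sylow 5 G) = 396 := by
  have : Fact (Nat.Prime 5) := ⟨by norm_num⟩
  obtain ⟨P⟩ : Nonempty (Sylow 5 G) := inferInstance
  obtain ⟨hP, hN, -, -⟩ := sylow5_full hG P
  rw [Sylow.card_eq_index_normalizer P]
  have hci := Subgroup.card_mul_index (Subgroup.normalizer ((P : Subgroup G) : Set G))
  rw [hN, hG] at hci
  have hci2 : (Subgroup.normalizer ((P : Subgroup G) : Set G)).index = 396 := by omega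
  exact hci2

/-- a simple group of order `7920` has `1584` elements of order `5` -/
theorem card_orderOf_five [Finite G] [IsSimpleGroup G] (hG : Nat.card G = 7920) :
    Nat.card {x : G // orderOf x = 5} = 1584 := by
  have : Fact (Nat.Prime 5) := ⟨by norm_num⟩
  rw [card_orderOf_eq_prime (fun P => (sylow5_full hG P).1), card_sylow5 hG]

end Cfsg.Agent.Lib.Helper91.M11
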